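import Cfsg.Agent.Lib.Helper4.FXSP.Defs
import Cfsg.Agent.Lib.Helper13.Symp
import Cfsg.Agent.Lib.Helper40.SympOrder

/-!
# S5975 (FXSP): package [EMB2]

From a `K`-Darboux basis: `d = k * m` and `Sp_{2m}(K)` embeds into `N(K) ∩ Sp_{2d}(F)`.
-/

set_option autoImplicit false
open scoped MatrixGroups
open scoped Matrix

namespace Cfsg.Agent.Lib.Helper77.FXSP

open Cfsg.Agent.Lib.Helper4.FXSP

universe u

section generic

variable {F : Type u} [Field F] {E : Type u} [Field E] {d m : ℕ}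
  (ρ : E →+* Md d F) (e : Fin m ⊕ Fin m → Vd d F)

/-- the coordinate map `E^(2m) → F^(2d)` -/
def Phi (c : Fin m ⊕ Fin m → E) : Vd d F := ∑ j, ρ (c j) *ᵥ e j

theorem Phi_add (c c' : Fin m ⊕ Fin m → E) : Phi ρ e (c + c') = Phi ρ e c + Phi ρ e c' := by
  unfold Phi
  rw [← Finset.sum_add_distrib]
  refine Finset.sum_congr rfl (fun j _ => ?_)
  rw [Pi.add_apply, map_add, Matrix.add_mulVec]

theorem Phi_smul (a : E) (c : Fin m ⊕ Fin m → E) : Phi ρ e (a • c) = ρ a *ᵥ Phi ρ e c := by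
  unfold Phi
  rw [Matrix.mulVec_sum]
  refine Finset.sum_congr rfl (fun j _ => ?_)
  rw [Pi.smul_apply, smul_eq_mul, map_mul, Matrix.mulVec_mulVec]

variable (bij : Function.Bijective (Phi ρ e))

/-- the inverse coordinate map -/
noncomputable def PhiInv (v : Vd d F) : Fin m ⊕ Fin m → E := Function.surjInv bij.2 v

theorem Phi_PhiInv (v : Vd d F) : Phi ρ e (PhiInv ρ e bij v) = v := Function.surjInv_eq bij.2 v

theorem PhiInv_Phi (c : Fin m ⊕ Fin m → E) : PhiInv ρ e bij (Phi ρ e c) = c :=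
  bij.1 (Phi_PhiInv ρ e bij _)

theorem PhiInv_add (v w : Vd d F) :
    PhiInv ρ e bij (v + w) = PhiInv ρ e bij v + PhiInv ρ e bij w :=
  bij.1 (by rw [Phi_add, Phi_PhiInv, Phi_PhiInv, Phi_PhiInv])

theorem PhiInv_smul (a : E) (v : Vd d F) :
    PhiInv ρ e bij (ρ a *ᵥ v) = a • PhiInv ρ e bij v :=
  bij.1 (by rw [Phi_smul, Phi_PhiInv, Phi_PhiInv])

/-- the transported action of a matrix over `E` -/
noncomputable def tA (A : Matrix (Fin m ⊕ Fin m) (Fin m ⊕ Fin m) E) (v : Vd d F) : Vd d F :=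
  Phi ρ e (A *ᵥ PhiInv ρ e bij v)

theorem tA_add (A : Matrix (Fin m ⊕ Fin m) (Fin m ⊕ Fin m) E) (v w : Vd d F) :
    tA ρ e bij A (v + w) = tA ρ e bij A v + tA ρ e bij A w := by
  unfold tA
  rw [PhiInv_add, Matrix.mulVec_add, Phi_add]

theorem tA_rho (A : Matrix (Fin m ⊕ Fin m) (Fin m ⊕ Fin m) E) (a : E) (v : Vd d F) :
    tA ρ e bij A (ρ a *ᵥ v) = ρ a *ᵥ tA ρ e bij A v := by
  unfold tA
  rw [PhiInv_smul, Matrix.mulVec_smul, Phi_smul]

theorem tA_one (v : Vd d F) : tA ρ e bij 1 v = v := by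
  unfold tA
  rw [Matrix.one_mulVec, Phi_PhiInv]

theorem tA_mul (A B : Matrix (Fin m ⊕ Fin m) (Fin m ⊕ Fin m) E) (v : Vd d F) :
    tA ρ e bij (A * B) v = tA ρ e bij A (tA ρ e bij B v) := by
  unfold tA
  rw [PhiInv_Phi, Matrix.mulVec_mulVec]

theorem tA_Phi (A : Matrix (Fin m ⊕ Fin m) (Fin m ⊕ Fin m) E) (c : Fin m ⊕ Fin m → E) :
    tA ρ e bij A (Phi ρ e c) = Phi ρ e (A *ᵥ c) := by
  unfold tA
  rw [PhiInv_Phi]

variable (hsc : ∀ t : F, ∃ a : E, ρ a = algebraMap F (Md d F) t)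

/-- the transported action as an `F`-linear map -/
noncomputable def LA (A : Matrix (Fin m ⊕ Fin m) (Fin m ⊕ Fin m) E) : Vd d F →ₗ[F] Vd d F where
  toFun := tA ρ e bij A
  map_add' := tA_add ρ e bij A
  map_smul' t v := by
    obtain ⟨a, ha⟩ := hsc t
    have h1 : ∀ w : Vd d F, t • w = ρ a *ᵥ w := by
      intro w
      rw [ha, Algebra.algebraMap_eq_smul_one, Matrix.smul_mulVec, Matrix.one_mulVec]
    simp only [RingHom.id_apply]
    rw [h1, tA_rho, ← h1]

theorem LA_apply (A : Matrix (Fin m ⊕ Fin m) (Fin m ⊕ Fin m) E) (v : Vd d F) :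
    LA ρ e bij hsc A v = tA ρ e bij A v := rfl

/-- the matrix of the transported action, as a monoid homomorphism -/
noncomputable def MHom : Matrix (Fin m ⊕ Fin m) (Fin m ⊕ Fin m) E →* Md d F where
  toFun A := LinearMap.toMatrix' (LA ρ e bij hsc A)
  map_one' := by
    have h : LA ρ e bij hsc 1 = 1 := LinearMap.ext (fun v => tA_one ρ e bij v)
    rw [h, LinearMap.toMatrix'_one]
  map_mul' A B := by
    have h : LA ρ e bij hsc (A * B) = LA ρ e bij hsc A * LA ρ e bij hsc B :=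
      LinearMap.ext (fun v => tA_mul ρ e bij A B v)
    rw [h, LinearMap.toMatrix'_mul]

theorem MHom_mulVec (A : Matrix (Fin m ⊕ Fin m) (Fin m ⊕ Fin m) E) (v : Vd d F) :
    MHom ρ e bij hsc A *ᵥ v = tA ρ e bij A v :=
  LinearMap.toMatrix'_mulVec _ v

/-- the induced homomorphism from the symplectic group over `E` to `GL_{2d}(F)` -/
noncomputable def psi : ↥(Matrix.symplecticGroup (Fin m) E) →* GL (Fin d ⊕ Fin d) F :=
  ((MHom ρ e bij hsc).comp (Matrix.symplecticGroup (Fin m) E).subtype).toHomUnits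

theorem psi_coe (A : ↥(Matrix.symplecticGroup (Fin m) E)) :
    ((psi ρ e bij hsc A : GL (Fin d ⊕ Fin d) F) : Md d F) = MHom ρ e bij hsc A.1 := rfl

theorem psi_injective : Function.Injective (psi ρ e bij hsc) := by
  intro A B h
  have h' : MHom ρ e bij hsc A.1 = MHom ρ e bij hsc B.1 :=
    congrArg (fun g : GL (Fin d ⊕ Fin d) F => (g : Md d F)) h
  apply Subtype.ext
  apply Matrix.mulVec_injective
  funext c
  have h2 := congrArg (fun M : Md d F => M *ᵥ Phi ρ e c) h'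
  simp only [MHom_mulVec, tA_Phi] at h2
  exact bij.1 h2

theorem psi_mem_sp (τ : E → F)
    (gram : ∀ c c' : Fin m ⊕ Fin m → E, Cfsg.sympForm d F (Phi ρ e c) (Phi ρ e c') =
      τ (∑ j : Fin m, (c (Sum.inr j) * c' (Sum.inl j) - c (Sum.inl j) * c' (Sum.inr j))))
    (A : ↥(Matrix.symplecticGroup (Fin m) E)) : psi ρ e bij hsc A ∈ Cfsg.spGL d F := by
  intro u v
  show Cfsg.sympForm d F (((psi ρ e bij hsc A : GL (Fin d ⊕ Fin d) F) : Md d F) *ᵥ u)
    (((psi ρ e bij hsc A : GL (Fin d ⊕ Fin d) F) : Md d F) *ᵥ v) = Cfsg.sympForm d F u v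
  rw [psi_coe, MHom_mulVec, MHom_mulVec]
  obtain ⟨c, rfl⟩ := bij.2 u
  obtain ⟨c', rfl⟩ := bij.2 v
  rw [tA_Phi, tA_Phi, gram, gram, ← Cfsg.Agent.Lib.Helper13.sympForm_eq,
    ← Cfsg.Agent.Lib.Helper13.sympForm_eq, Cfsg.Agent.Lib.Helper13.sympForm_mulVec_of_mem m A.2]

/-- an invertible matrix commuting with `K` normalizes `K`. -/
theorem mem_normalizer_of_commute' (g : GL (Fin d ⊕ Fin d) F) (K : Subalgebra F (Md d F))
    (h : ∀ k ∈ K, (g : Md d F) * k = k * (g : Md d F)) :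
    g ∈ Cfsg.Geo.subalgebraNormalizer K := by
  have h1 : ∀ k ∈ K, (g : Md d F) * k * ((g⁻¹ : GL (Fin d ⊕ Fin d) F) : Md d F) = k := by
    intro k hk
    rw [h k hk, mul_assoc, ← Units.val_mul, mul_inv_cancel, Units.val_one, mul_one]
  intro k
  constructor
  · intro hk
    rw [h1 k hk]
    exact hk
  · intro hk
    have hc := h _ hk
    have e1 : (g : Md d F) * k * ((g⁻¹ : GL (Fin d ⊕ Fin d) F) : Md d F) * (g : Md d F) =
        (g : Md d F) * k := Units.inv_mul_cancel_right _ g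
    have e3 : (g : Md d F) * k * ((g⁻¹ : GL (Fin d ⊕ Fin d) F) : Md d F) = k :=
      (Units.mul_right_inj g).mp (hc.trans e1)
    rw [← e3]
    exact hk

theorem psi_mem_norm (K : Subalgebra F (Md d F)) (hK : ∀ x ∈ K, ∃ a : E, ρ a = x)
    (A : ↥(Matrix.symplecticGroup (Fin m) E)) :
    psi ρ e bij hsc A ∈ Cfsg.Geo.subalgebraNormalizer K := by
  apply mem_normalizer_of_commute'
  intro x hx
  obtain ⟨a, rfl⟩ := hK x hx
  apply Matrix.mulVec_injective
  funext v
  rw [← Matrix.mulVec_mulVec, ← Matrix.mulVec_mulVec, psi_coe, MHom_mulVec, MHom_mulVec, tA_rho]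

include bij hsc in
/-- the order of `Sp_{2m}(E)` divides the order of `N(K) ∩ Sp_{2d}(F)`. -/
theorem card_dvd_of_darboux (K : Subalgebra F (Md d F)) (hK : ∀ x ∈ K, ∃ a : E, ρ a = x)
    (τ : E → F)
    (gram : ∀ c c' : Fin m ⊕ Fin m → E, Cfsg.sympForm d F (Phi ρ e c) (Phi ρ e c') =
      τ (∑ j : Fin m, (c (Sum.inr j) * c' (Sum.inl j) - c (Sum.inl j) * c' (Sum.inr j)))) :
    Nat.card ↥(Matrix.symplecticGroup (Fin m) E) ∣
      Nat.card ↥(Cfsg.Geo.subalgebraNormalizer K ⊓ Cfsg.spGL d F) := by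
  let ψ' : ↥(Matrix.symplecticGroup (Fin m) E) →*
      ↥(Cfsg.Geo.subalgebraNormalizer K ⊓ Cfsg.spGL d F) :=
    (psi ρ e bij hsc).codRestrict _
      (fun A => ⟨psi_mem_norm ρ e bij hsc K hK A, psi_mem_sp ρ e bij hsc τ gram A⟩)
  exact Subgroup.card_dvd_of_injective ψ'
    (fun A B h => psi_injective ρ e bij hsc (congrArg Subtype.val h))

end generic

open Classical in
/-- The field structure on a commutative subalgebra of matrices whose non-zero elements are
invertible inside it. -/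
@[reducible] noncomputable def fieldOfSubS {F : Type u} [Field F] {ι : Type} [Fintype ι]
    [DecidableEq ι] [Nonempty ι] (K' : Subalgebra F (Matrix ι ι F))
    (hc : ∀ x ∈ K', ∀ y ∈ K', x * y = y * x) (hi : ∀ x ∈ K', x ≠ 0 → ∃ y ∈ K', x * y = 1) :
    Field ↥K' where
  __ := (inferInstance : Ring ↥K')
  mul_comm a b := Subtype.ext (hc a a.2 b b.2)
  inv a := if ha : a = 0 then 0 else
    ⟨Classical.choose (hi a a.2 (fun h => ha (Subtype.ext h))),
      (Classical.choose_spec (hi a a.2 (fun h => ha (Subtype.ext h)))).1⟩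
  exists_pair_ne := ⟨0, 1, fun h => by
    have h1 : (0 : Matrix ι ι F) = 1 := congrArg Subtype.val h
    exact zero_ne_one h1⟩
  mul_inv_cancel a ha := by
    apply Subtype.ext
    have h2 := (Classical.choose_spec (hi a a.2 (fun h => ha (Subtype.ext h)))).2
    show (a : Matrix ι ι F) * ((if ha : a = 0 then (0 : ↥K') else
      ⟨Classical.choose (hi a a.2 (fun h => ha (Subtype.ext h))),
        (Classical.choose_spec (hi a a.2 (fun h => ha (Subtype.ext h)))).1⟩ : ↥K') :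
          Matrix ι ι F) = 1
    rw [dif_neg ha]
    exact h2
  inv_zero := dif_pos rfl
  nnqsmul := _
  nnqsmul_def _ _ := rfl
  qsmul := _
  qsmul_def _ _ := rfl

/-- [EMB2] -/
theorem pkgEmb2 : PkgEmb2.{u} := by
  intro F _ _ d k K hA hd m τ e hD
  have hne : Nonempty (Fin d ⊕ Fin d) := ⟨Sum.inl ⟨0, hd⟩⟩
  let instField : Field ↥K := fieldOfSubS K hA.fld.comm hA.fld.inv
  let instFin : Fintype ↥K := Fintype.ofFinite _
  have hcardK : Fintype.card ↥K = Fintype.card F ^ k := by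
    have h := Module.natCard_eq_pow_finrank (K := F) (V := ↥K)
    rw [hA.fld.finrank_eq] at h
    rw [← Nat.card_eq_fintype_card, h, Nat.card_eq_fintype_card]
  constructor
  · have hb := Nat.card_eq_of_bijective _ hD.bij
    rw [Nat.card_eq_fintype_card, Nat.card_eq_fintype_card, Fintype.card_fun, Fintype.card_fun,
      hcardK, Fintype.card_sum, Fintype.card_fin, Fintype.card_sum, Fintype.card_fin,
      ← pow_mul] at hb
    have h2 := Nat.pow_right_injective (Fintype.one_lt_card : 1 < Fintype.card F) hb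
    have h3 : k * (m + m) = k * m + k * m := by ring
    omega
  · have hdvd := card_dvd_of_darboux (E := ↥K) (K.val : ↥K →+* Md d F) e hD.bij
      (fun t => ⟨⟨algebraMap F (Md d F) t, K.algebraMap_mem t⟩, rfl⟩) K
      (fun x hx => ⟨⟨x, hx⟩, rfl⟩) (fun x => τ x) hD.gram
    have hc := Cfsg.Agent.Lib.Helper40.card_symplecticGroup (F := ↥K) m
    rw [hc, hcardK] at hdvd
    exact hdvd

end Cfsg.Agent.Lib.Helper77.FXSP
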