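import Cfsg.Agent.Lib.Helper4.FXSP.Defs

/-!
# S5975 (FXSP): package [VAL]

Pure arithmetic: the `r`-part of `|Sp_{2km}(q)|` is at most that of `|Sp_{2m}(q^k)|` when
`r ∣ q^(2n) - 1` forces `k ∣ n`.
-/

set_option autoImplicit false

namespace Cfsg.Agent.Lib.Helper77.FXSP

open Cfsg.Agent.Lib.Helper4.FXSP

theorem padicVal_spOrd (q d r : ℕ) [Fact r.Prime] (hq : 2 ≤ q) (hrq : ¬ r ∣ q) :
    padicValNat r (spOrd q d) =
      ∑ j ∈ Finset.range d, padicValNat r (q ^ (2 * (j + 1)) - 1) := by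
  unfold spOrd
  have hne : ∀ j, q ^ (2 * (j + 1)) - 1 ≠ 0 := by
    intro j
    have : 1 < q ^ (2 * (j + 1)) := Nat.one_lt_pow (by omega) (by omega)
    omega
  have key : ∀ n : ℕ, padicValNat r (∏ j ∈ Finset.range n, (q ^ (2 * (j + 1)) - 1)) =
      ∑ j ∈ Finset.range n, padicValNat r (q ^ (2 * (j + 1)) - 1) := by
    intro n
    induction n with
    | zero => simp
    | succ n ih =>
      rw [Finset.prod_range_succ, Finset.sum_range_succ,
        padicValNat.mul (Finset.prod_ne_zero_iff.2 (fun j _ => hne j)) (hne n), ih]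
  have hprod : (∏ j ∈ Finset.range d, (q ^ (2 * (j + 1)) - 1)) ≠ 0 :=
    Finset.prod_ne_zero_iff.2 (fun j _ => hne j)
  have hqd : q ^ (d ^ 2) ≠ 0 := pow_ne_zero _ (by omega)
  rw [padicValNat.mul hqd hprod, padicValNat.pow,
    padicValNat.eq_zero_of_not_dvd hrq, mul_zero, zero_add, key]

/-- [VAL] -/
theorem pkgVal : PkgVal := by
  intro q k m r hq hr hrq hk hyp
  have : Fact r.Prime := ⟨hr⟩
  have hqk : 2 ≤ q ^ k := le_trans hq (Nat.le_self_pow (by omega) q)
  have hrqk : ¬ r ∣ q ^ k := fun h => hrq (hr.dvd_of_dvd_pow h)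
  rw [padicVal_spOrd q (k * m) r hq hrq, padicVal_spOrd (q ^ k) m r hqk hrqk]
  have hf0 : ∀ n, 1 ≤ n → ¬ k ∣ n → padicValNat r (q ^ (2 * n) - 1) = 0 :=
    fun n hn hkn => padicValNat.eq_zero_of_not_dvd (fun h => hkn (hyp n hn h))
  have e2 : ∀ j, (q ^ k) ^ (2 * (j + 1)) = q ^ (2 * (k * (j + 1))) := by
    intro j
    rw [← pow_mul]
    congr 1
    ring
  simp only [e2]
  induction m with
  | zero => simp
  | succ n ih =>
    rw [Nat.mul_succ, Finset.sum_range_add, Finset.sum_range_succ]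
    refine Nat.add_le_add ih (le_of_eq ?_)
    have e3 : k * n + (k - 1) + 1 = k * (n + 1) := by
      rw [Nat.mul_succ]
      omega
    rw [Finset.sum_eq_single (k - 1)]
    · rw [e3]
    · intro i hi hne
      rw [Finset.mem_range] at hi
      apply hf0
      · omega
      · intro hdvd
        rw [Nat.add_assoc] at hdvd
        have h1 : k ∣ i + 1 := (Nat.dvd_add_right (dvd_mul_right k n)).1 hdvd
        have h2 : k ≤ i + 1 := Nat.le_of_dvd (by omega) h1
        omega
    · intro h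
      exfalso
      apply h
      rw [Finset.mem_range]
      omega

end Cfsg.Agent.Lib.Helper77.FXSP
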